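import Mathlib

/-!
# Sharply multiply transitive groups (Jordan) (owner: helper7)

`Sharp G α k` : the group `G` acts sharply `k`-transitively on `α` (elementwise form).
`Sharp.four` : degree 4, 5, 6 or 11 for `k = 4`.  `Sharp.six_ne` : no degree 13 for `k = 6`.  `Sharp.step` : point stabiliser.
-/

set_option autoImplicit false

namespace Cfsg.Agent.H7

open MulAction

/-- `G` acts sharply `k`-transitively on `α`. -/
structure Sharp (G α : Type*) [Group G] [MulAction G α] (k : ℕ) : Prop where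
  ex : ∀ x y : Fin k → α, Function.Injective x → Function.Injective y → ∃ g : G, ∀ i, g • x i = y i
  uniq : ∀ x : Fin k → α, Function.Injective x → ∀ g : G, (∀ i, g • x i = x i) → g = 1

theorem Sharp.of {α : Type*} (G : Subgroup (Equiv.Perm α)) (k : ℕ) [IsMultiplyPretransitive G α k]
    (h : ∀ x : Fin k ↪ α, stabilizer G x = ⊥) : Sharp G α k := by
  refine ⟨fun x y hx hy => ?_, fun x hx g hg => ?_⟩
  · obtain ⟨g, hg⟩ := exists_smul_eq G (⟨x, hx⟩ : Fin k ↪ α) ⟨y, hy⟩
    exact ⟨g, fun i => congrArg (fun e : Fin k ↪ α => e i) hg⟩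
  · have h1 : g ∈ stabilizer G (⟨x, hx⟩ : Fin k ↪ α) := by
      rw [mem_stabilizer_iff]
      ext i
      exact hg i
    rw [h, Subgroup.mem_bot] at h1
    exact h1

variable {G α : Type*} [Group G] [MulAction G α]

theorem Sharp.eq_of_agree {k : ℕ} (h : Sharp G α k) (x : Fin k → α) (hx : Function.Injective x) {g g' : G}
    (hg : ∀ i, g • x i = g' • x i) : g = g' := by
  have := h.uniq x hx (g'⁻¹ * g) (fun i => by rw [mul_smul, hg, inv_smul_smul])
  rw [inv_mul_eq_one] at this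
  exact this.symm

theorem Sharp.step {k : ℕ} (h : Sharp G α (k + 1)) (a : α) : Sharp (stabilizer G a) (SubMulAction.ofStabilizer G a) k := by
  have hinj : ∀ x : Fin k → SubMulAction.ofStabilizer G a, Function.Injective x →
      Function.Injective (Fin.cons a (fun i => (x i : α)) : Fin (k + 1) → α) := by
    intro x hx
    rw [Fin.cons_injective_iff]
    refine ⟨?_, fun i j hij => hx (Subtype.ext hij)⟩
    rintro ⟨i, hi⟩
    exact (x i).2 hi
  refine ⟨fun x y hx hy => ?_, fun x hx g hg => ?_⟩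
  · obtain ⟨g, hg⟩ := h.ex _ _ (hinj x hx) (hinj y hy)
    have h0 := hg 0
    rw [Fin.cons_zero, Fin.cons_zero] at h0
    refine ⟨⟨g, h0⟩, fun i => ?_⟩
    have h1 := hg i.succ
    rw [Fin.cons_succ, Fin.cons_succ] at h1
    exact Subtype.ext h1
  · apply Subtype.ext
    apply h.uniq _ (hinj x hx)
    intro i
    refine Fin.cases ?_ (fun i => ?_) i
    · rw [Fin.cons_zero]; exact g.2
    · rw [Fin.cons_succ]
      exact congrArg Subtype.val (hg i)

theorem card_ofStabilizer [Finite α] (a : α) : Nat.card (SubMulAction.ofStabilizer G a) + 1 = Nat.card α := by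
  classical
  have := Fintype.ofFinite α
  have h1 : Nat.card (SubMulAction.ofStabilizer G a) = Nat.card {x : α // x ≠ a} := rfl
  rw [h1, Nat.card_eq_fintype_card, Nat.card_eq_fintype_card, Fintype.card_subtype_compl, Fintype.card_subtype_eq]
  have : 0 < Fintype.card α := Fintype.card_pos_iff.2 ⟨a⟩
  omega

section Count

variable [Fintype α] [DecidableEq α]

/-- fixed points -/
def fx (g : G) : Finset α := Finset.univ.filter (fun x => g • x = x)

/-- moved points -/
def mv (g : G) : Finset α := Finset.univ.filter (fun x => g • x ≠ x)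

theorem mem_fx {g : G} {x : α} : x ∈ fx (α := α) g ↔ g • x = x := by simp [fx]

theorem mem_mv {g : G} {x : α} : x ∈ mv (α := α) g ↔ g • x ≠ x := by simp [mv]

theorem card_fx_add_mv (g : G) : (fx (α := α) g).card + (mv (α := α) g).card = Fintype.card α := by
  unfold fx mv
  rw [Finset.card_filter_add_card_filter_not, Finset.card_univ]

theorem Sharp.card_fx_lt {k : ℕ} (h : Sharp G α k) {g : G} (hg : g ≠ 1) : (fx (α := α) g).card < k := by
  by_contra hc
  push Not at hc
  obtain ⟨s, hs, hsk⟩ := Finset.exists_subset_card_eq hc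
  let e : Fin k ≃ s := (Fintype.equivFinOfCardEq (by simp [hsk])).symm
  apply hg
  apply h.uniq (fun i => (e i : α)) (fun i j hij => e.injective (Subtype.ext hij))
  intro i
  exact mem_fx.1 (hs (e i).2)

theorem even_card_mv {g : G} (hg : g * g = 1) : Even (mv (α := α) g).card := by
  have hp : Fact (Nat.Prime 2) := ⟨Nat.prime_two⟩
  have h := Equiv.Perm.card_fixedPoints_modEq (α := α) (f := (fun x => g • x : Function.End α)) (p := 2) (n := 1) (by
    funext x
    have h1 : g • (g • x) = x := by rw [← mul_smul, hg, one_smul]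
    exact h1)
  have h2 : Fintype.card (Function.fixedPoints (fun x : α => g • x)) = (fx (α := α) g).card := by
    rw [fx, Fintype.card_subtype]
    rfl
  have h3 := card_fx_add_mv (α := α) g
  have h4 : Fintype.card α ≡ (fx (α := α) g).card [MOD 2] := by
    rw [← h2]; exact h
  rw [Nat.even_iff]
  unfold Nat.ModEq at h4
  omega

omit [Fintype α] [DecidableEq α] in
theorem inj4 {a b c d : α} (hab : a ≠ b) (hac : a ≠ c) (had : a ≠ d) (hbc : b ≠ c) (hbd : b ≠ d) (hcd : c ≠ d) :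
    Function.Injective ![a, b, c, d] := by
  intro i j hij
  fin_cases i <;> fin_cases j <;> simp_all

omit [Fintype α] [DecidableEq α] in
theorem inj6 {a b c d e f : α} (hab : a ≠ b) (hac : a ≠ c) (had : a ≠ d) (hae : a ≠ e) (haf : a ≠ f) (hbc : b ≠ c)
    (hbd : b ≠ d) (hbe : b ≠ e) (hbf : b ≠ f) (hcd : c ≠ d) (hce : c ≠ e) (hcf : c ≠ f) (hde : d ≠ e) (hdf : d ≠ f)
    (hef : e ≠ f) : Function.Injective ![a, b, c, d, e, f] := by
  intro i j hij
  fin_cases i <;> fin_cases j <;> simp_all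

/-- Conjugate elements have the same number of fixed points. -/
theorem card_fx_conj (g k : G) : (fx (α := α) (k * g * k⁻¹)).card = (fx (α := α) g).card := by
  symm
  apply Finset.card_bij (fun x _ => k • x)
  · intro x hx
    rw [mem_fx] at hx ⊢
    rw [mul_smul, inv_smul_smul, mul_smul, hx]
  · intro x _ y _ hxy
    exact smul_left_cancel k hxy
  · intro y hy
    refine ⟨k⁻¹ • y, ?_, by rw [smul_inv_smul]⟩
    rw [mem_fx] at hy ⊢
    rw [eq_inv_smul_iff, ← mul_smul, ← mul_smul]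
    exact hy

theorem exists_mv_notMem {g : G} {s : Finset α} (h : s.card < (mv (α := α) g).card) : ∃ x, g • x ≠ x ∧ x ∉ s := by
  obtain ⟨x, hx, hxs⟩ := Finset.exists_mem_notMem_of_card_lt_card h
  exact ⟨x, mem_mv.1 hx, hxs⟩

/-- Involutions moving at least four points are conjugate. -/
theorem Sharp.conj4 (h : Sharp G α 4) {g g' : G} (hg : g * g = 1) (hg' : g' * g' = 1) (hm : 3 ≤ (mv (α := α) g).card)
    (hm' : 3 ≤ (mv (α := α) g').card) : ∃ k : G, k * g * k⁻¹ = g' := by
  have key : ∀ g : G, g * g = 1 → 3 ≤ (mv (α := α) g).card → ∃ a c : α, Function.Injective ![a, g • a, c, g • c] := by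
    intro g hg hm
    have hgg : ∀ x : α, g • (g • x) = x := fun x => by rw [← mul_smul, hg, one_smul]
    obtain ⟨a, ha, _⟩ := exists_mv_notMem (α := α) (g := g) (s := ∅) (by rw [Finset.card_empty]; omega)
    obtain ⟨c, hc, hcs⟩ := exists_mv_notMem (α := α) (g := g) (s := {a, g • a}) (by
      have := Finset.card_le_two (a := a) (b := g • a); omega)
    simp only [Finset.mem_insert, Finset.mem_singleton, not_or] at hcs
    refine ⟨a, c, inj4 (Ne.symm ha) (Ne.symm hcs.1) ?_ (Ne.symm hcs.2) ?_ (Ne.symm hc)⟩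
    · intro h1; apply hcs.2; rw [h1, hgg]
    · intro h1; exact hcs.1 (smul_left_cancel g h1).symm
  obtain ⟨a, c, hac⟩ := key g hg hm
  obtain ⟨a', c', hac'⟩ := key g' hg' hm'
  obtain ⟨k, hk⟩ := h.ex _ _ hac hac'
  have k0 : k • a = a' := hk 0
  have k1 : k • g • a = g' • a' := hk 1
  have k2 : k • c = c' := hk 2
  have k3 : k • g • c = g' • c' := hk 3
  have hgg : ∀ x : α, g • (g • x) = x := fun x => by rw [← mul_smul, hg, one_smul]
  have hgg' : ∀ x : α, g' • (g' • x) = x := fun x => by rw [← mul_smul, hg', one_smul]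
  refine ⟨k, h.eq_of_agree _ hac' ?_⟩
  intro i
  fin_cases i
  · change (k * g * k⁻¹) • a' = g' • a'
    rw [← k0, mul_smul, inv_smul_smul, mul_smul, k1, k0]
  · change (k * g * k⁻¹) • (g' • a') = g' • (g' • a')
    rw [← k1, mul_smul, inv_smul_smul, mul_smul, hgg, k0, k1, hgg']
  · change (k * g * k⁻¹) • c' = g' • c'
    rw [← k2, mul_smul, inv_smul_smul, mul_smul, k3, k2]
  · change (k * g * k⁻¹) • (g' • c') = g' • (g' • c')
    rw [← k3, mul_smul, inv_smul_smul, mul_smul, hgg, k2, k3, hgg']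

/-- Involutions moving at least six points are conjugate in a sharply 6-transitive group. -/
theorem Sharp.conj6 (h : Sharp G α 6) {g g' : G} (hg : g * g = 1) (hg' : g' * g' = 1) (hm : 5 ≤ (mv (α := α) g).card)
    (hm' : 5 ≤ (mv (α := α) g').card) : ∃ k : G, k * g * k⁻¹ = g' := by
  have key : ∀ g : G, g * g = 1 → 5 ≤ (mv (α := α) g).card →
      ∃ a c e : α, Function.Injective ![a, g • a, c, g • c, e, g • e] := by
    intro g hg hm
    have hgg : ∀ x : α, g • (g • x) = x := fun x => by rw [← mul_smul, hg, one_smul]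
    obtain ⟨a, ha, _⟩ := exists_mv_notMem (α := α) (g := g) (s := ∅) (by rw [Finset.card_empty]; omega)
    obtain ⟨c, hc, hcs⟩ := exists_mv_notMem (α := α) (g := g) (s := {a, g • a}) (by
      have := Finset.card_le_two (a := a) (b := g • a); omega)
    obtain ⟨e, he, hes⟩ := exists_mv_notMem (α := α) (g := g) (s := {a, g • a, c, g • c}) (by
      have := Finset.card_le_four (a := a) (b := g • a) (c := c) (d := g • c); omega)
    simp only [Finset.mem_insert, Finset.mem_singleton, not_or] at hcs hes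
    have n1 : ∀ x y : α, x ≠ g • y → g • x ≠ y := by
      intro x y hxy h1; apply hxy; rw [← h1, hgg]
    refine ⟨a, c, e, inj6 (Ne.symm ha) (Ne.symm hcs.1) ?_ (Ne.symm hes.1) ?_ (Ne.symm hcs.2) ?_ (Ne.symm hes.2.1) ?_
      (Ne.symm hc) (Ne.symm hes.2.2.1) ?_ (Ne.symm hes.2.2.2) ?_ (Ne.symm he)⟩
    · exact Ne.symm (n1 _ _ hcs.2)
    · exact Ne.symm (n1 _ _ hes.2.1)
    · intro h1; exact hcs.1 (smul_left_cancel g h1).symm
    · intro h1; exact hes.1 (smul_left_cancel g h1).symm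
    · exact Ne.symm (n1 _ _ hes.2.2.2)
    · intro h1; exact hes.2.2.1 (smul_left_cancel g h1).symm
  obtain ⟨a, c, e, hac⟩ := key g hg hm
  obtain ⟨a', c', e', hac'⟩ := key g' hg' hm'
  obtain ⟨k, hk⟩ := h.ex _ _ hac hac'
  have k0 : k • a = a' := hk 0
  have k1 : k • g • a = g' • a' := hk 1
  have k2 : k • c = c' := hk 2
  have k3 : k • g • c = g' • c' := hk 3
  have k4 : k • e = e' := hk 4
  have k5 : k • g • e = g' • e' := hk 5
  have hgg : ∀ x : α, g • (g • x) = x := fun x => by rw [← mul_smul, hg, one_smul]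
  have hgg' : ∀ x : α, g' • (g' • x) = x := fun x => by rw [← mul_smul, hg', one_smul]
  refine ⟨k, h.eq_of_agree _ hac' ?_⟩
  intro i
  fin_cases i
  · change (k * g * k⁻¹) • a' = g' • a'
    rw [← k0, mul_smul, inv_smul_smul, mul_smul, k1, k0]
  · change (k * g * k⁻¹) • (g' • a') = g' • (g' • a')
    rw [← k1, mul_smul, inv_smul_smul, mul_smul, hgg, k0, k1, hgg']
  · change (k * g * k⁻¹) • c' = g' • c'
    rw [← k2, mul_smul, inv_smul_smul, mul_smul, k3, k2]
  · change (k * g * k⁻¹) • (g' • c') = g' • (g' • c')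
    rw [← k3, mul_smul, inv_smul_smul, mul_smul, hgg, k2, k3, hgg']
  · change (k * g * k⁻¹) • e' = g' • e'
    rw [← k4, mul_smul, inv_smul_smul, mul_smul, k5, k4]
  · change (k * g * k⁻¹) • (g' • e') = g' • (g' • e')
    rw [← k5, mul_smul, inv_smul_smul, mul_smul, hgg, k4, k5, hgg']

/-- The counting argument for `k = 4`. -/
theorem Sharp.four (h : Sharp G α 4) (h4 : 4 ≤ Fintype.card α) [Finite G] : Fintype.card α = 4 ∨ Fintype.card α = 5 ∨
    Fintype.card α = 6 ∨ Fintype.card α = 11 := by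
  classical
  by_cases h7 : Fintype.card α < 7
  · omega
  push Not at h7
  have := Fintype.ofFinite G
  obtain ⟨a, b, hab⟩ : ∃ a b : α, a ≠ b := by
    have := Fintype.one_lt_card_iff.1 (show 1 < Fintype.card α by omega)
    obtain ⟨a, b, h⟩ := this
    exact ⟨a, b, h⟩
  -- the unique elements
  have exX : ∀ c d : α, c ≠ d → c ∉ ({a, b} : Finset α) → d ∉ ({a, b} : Finset α) →
      ∃ g : G, g • a = b ∧ g • b = a ∧ g • c = d ∧ g • d = c := by
    intro c d hcd hc hd
    simp only [Finset.mem_insert, Finset.mem_singleton, not_or] at hc hd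
    obtain ⟨g, hg⟩ := h.ex ![a, b, c, d] ![b, a, d, c]
      (inj4 hab (Ne.symm hc.1) (Ne.symm hd.1) (Ne.symm hc.2) (Ne.symm hd.2) hcd)
      (inj4 hab.symm (Ne.symm hd.2) (Ne.symm hc.2) (Ne.symm hd.1) (Ne.symm hc.1) hcd.symm)
    exact ⟨g, hg 0, hg 1, hg 2, hg 3⟩
  have exY : ∀ c d : α, c ≠ d → c ∉ ({a, b} : Finset α) → d ∉ ({a, b} : Finset α) →
      ∃ g : G, g • a = b ∧ g • b = a ∧ g • c = c ∧ g • d = d := by
    intro c d hcd hc hd
    simp only [Finset.mem_insert, Finset.mem_singleton, not_or] at hc hd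
    obtain ⟨g, hg⟩ := h.ex ![a, b, c, d] ![b, a, c, d]
      (inj4 hab (Ne.symm hc.1) (Ne.symm hd.1) (Ne.symm hc.2) (Ne.symm hd.2) hcd)
      (inj4 hab.symm (Ne.symm hc.2) (Ne.symm hd.2) (Ne.symm hc.1) (Ne.symm hd.1) hcd)
    exact ⟨g, hg 0, hg 1, hg 2, hg 3⟩
  have hun : ∀ c d : α, c ≠ d → c ∉ ({a, b} : Finset α) → d ∉ ({a, b} : Finset α) → ∀ g g' : G,
      g • a = g' • a → g • b = g' • b → g • c = g' • c → g • d = g' • d → g = g' := by
    intro c d hcd hc hd g g' h1 h2 h3 h4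
    simp only [Finset.mem_insert, Finset.mem_singleton, not_or] at hc hd
    apply h.eq_of_agree ![a, b, c, d]
      (inj4 hab (Ne.symm hc.1) (Ne.symm hd.1) (Ne.symm hc.2) (Ne.symm hd.2) hcd)
    intro i
    fin_cases i
    · exact h1
    · exact h2
    · exact h3
    · exact h4
  let R : Finset α := ({a, b} : Finset α)ᶜ
  have hR : R.card = Fintype.card α - 2 := by
    rw [Finset.card_compl, Finset.card_pair hab]
  let J : Finset G := Finset.univ.filter (fun g => g • a = b ∧ g • b = a ∧ g * g = 1)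
  have hJ : ∀ g, g ∈ J ↔ (g • a = b ∧ g • b = a ∧ g * g = 1) := by intro g; simp [J]
  have hRm : ∀ c, c ∈ R ↔ c ∉ ({a, b} : Finset α) := by intro c; simp only [R, Finset.mem_compl]
  -- choose functions
  have cX : ∀ p : α × α, ∃ g : G, p ∈ R.offDiag → g • a = b ∧ g • b = a ∧ g • p.1 = p.2 ∧ g • p.2 = p.1 := by
    intro p
    by_cases hp : p ∈ R.offDiag
    · rw [Finset.mem_offDiag] at hp
      obtain ⟨g, hg⟩ := exX p.1 p.2 hp.2.2 ((hRm _).1 hp.1) ((hRm _).1 hp.2.1)
      exact ⟨g, fun _ => hg⟩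
    · exact ⟨1, fun h => absurd h hp⟩
  have cY : ∀ p : α × α, ∃ g : G, p ∈ R.offDiag → g • a = b ∧ g • b = a ∧ g • p.1 = p.1 ∧ g • p.2 = p.2 := by
    intro p
    by_cases hp : p ∈ R.offDiag
    · rw [Finset.mem_offDiag] at hp
      obtain ⟨g, hg⟩ := exY p.1 p.2 hp.2.2 ((hRm _).1 hp.1) ((hRm _).1 hp.2.1)
      exact ⟨g, fun _ => hg⟩
    · exact ⟨1, fun h => absurd h hp⟩
  choose X hX using cX
  choose Y hY using cY
  have hXJ : ∀ p ∈ R.offDiag, X p ∈ J := by
    intro p hp
    obtain ⟨h1, h2, h3, h4⟩ := hX p hp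
    rw [Finset.mem_offDiag] at hp
    rw [hJ]
    refine ⟨h1, h2, ?_⟩
    apply hun p.1 p.2 hp.2.2 ((hRm _).1 hp.1) ((hRm _).1 hp.2.1)
    · rw [mul_smul, h1, h2, one_smul]
    · rw [mul_smul, h2, h1, one_smul]
    · rw [mul_smul, h3, h4, one_smul]
    · rw [mul_smul, h4, h3, one_smul]
  have hYJ : ∀ p ∈ R.offDiag, Y p ∈ J := by
    intro p hp
    obtain ⟨h1, h2, h3, h4⟩ := hY p hp
    rw [Finset.mem_offDiag] at hp
    rw [hJ]
    refine ⟨h1, h2, ?_⟩
    apply hun p.1 p.2 hp.2.2 ((hRm _).1 hp.1) ((hRm _).1 hp.2.1)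
    · rw [mul_smul, h1, h2, one_smul]
    · rw [mul_smul, h2, h1, one_smul]
    · rw [mul_smul, h3, h3, one_smul]
    · rw [mul_smul, h4, h4, one_smul]
  -- an element of J with two fixed points
  have hcardP : R.offDiag.card = (Fintype.card α - 2) * (Fintype.card α - 3) := by
    rw [Finset.offDiag_card, hR]
    have : Fintype.card α - 3 = Fintype.card α - 2 - 1 := by omega
    rw [this]
    generalize Fintype.card α - 2 = q
    rw [Nat.mul_sub q q 1, mul_one]
  have hPne : R.offDiag.Nonempty := by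
    rw [← Finset.card_pos, hcardP]
    exact Nat.mul_pos (by omega) (by omega)
  obtain ⟨p0, hp0⟩ := hPne
  have hg0 := hYJ p0 hp0
  have hne1 : ∀ g ∈ J, g ≠ 1 := by
    intro g hg h1
    rw [hJ, h1, one_smul] at hg
    exact hab hg.1
  have hmv : ∀ g ∈ J, 3 ≤ (mv (α := α) g).card := by
    intro g hg
    have h1 := h.card_fx_lt (hne1 g hg)
    have h2 := card_fx_add_mv (α := α) g
    omega
  have hconst : ∀ g ∈ J, (fx (α := α) g).card = (fx (α := α) (Y p0)).card := by
    intro g hg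
    obtain ⟨k, hk⟩ := h.conj4 ((hJ _).1 hg0).2.2 ((hJ _).1 hg).2.2 (hmv _ hg0) (hmv g hg)
    rw [← hk, card_fx_conj]
  set f := (fx (α := α) (Y p0)).card with hf
  have hf2 : 2 ≤ f := by
    obtain ⟨h1, h2, h3, h4⟩ := hY p0 hp0
    rw [Finset.mem_offDiag] at hp0
    have : ({p0.1, p0.2} : Finset α) ⊆ fx (Y p0) := by
      intro x hx
      rw [Finset.mem_insert, Finset.mem_singleton] at hx
      rcases hx with rfl | rfl
      · exact mem_fx.2 h3
      · exact mem_fx.2 h4
    have := Finset.card_le_card this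
    rwa [Finset.card_pair hp0.2.2] at this
  have hf3 : f < 4 := h.card_fx_lt (hne1 _ hg0)
  -- fibres
  have fibX : ∀ g ∈ J, (R.offDiag.filter (fun p => X p = g)).card = Fintype.card α - f - 2 := by
    intro g hg
    have hgJ := (hJ g).1 hg
    have hgg : ∀ x : α, g • (g • x) = x := fun x => by rw [← mul_smul, hgJ.2.2, one_smul]
    have h1 : ((mv (α := α) g) \ {a, b}).card = Fintype.card α - f - 2 := by
      rw [Finset.card_sdiff_of_subset, Finset.card_pair hab]
      · have := card_fx_add_mv (α := α) g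
        have := hconst g hg
        omega
      · intro x hx
        rw [Finset.mem_insert, Finset.mem_singleton] at hx
        rcases hx with rfl | rfl
        · rw [mem_mv, hgJ.1]; exact hab.symm
        · rw [mem_mv, hgJ.2.1]; exact hab
    rw [← h1]
    symm
    apply Finset.card_bij (fun c _ => (c, g • c))
    · intro c hc
      rw [Finset.mem_sdiff, mem_mv] at hc
      have hc2 : g • c ∈ R := by
        rw [hRm]
        have := hc.2
        simp only [Finset.mem_insert, Finset.mem_singleton, not_or] at this ⊢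
        refine ⟨fun h' => this.2 ?_, fun h' => this.1 ?_⟩
        · rw [← hgg c, h', hgJ.1]
        · rw [← hgg c, h', hgJ.2.1]
      have hp : (c, g • c) ∈ R.offDiag := by
        rw [Finset.mem_offDiag]
        exact ⟨(hRm _).2 hc.2, hc2, Ne.symm hc.1⟩
      rw [Finset.mem_filter]
      refine ⟨hp, ?_⟩
      obtain ⟨h1, h2, h3, h4⟩ := hX _ hp
      apply hun c (g • c) (Ne.symm hc.1) hc.2 ((hRm _).1 hc2)
      · rw [h1, hgJ.1]
      · rw [h2, hgJ.2.1]
      · exact h3
      · rw [h4, hgg]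
    · intro c _ c' _ hcc
      exact congrArg Prod.fst hcc
    · intro p hp
      rw [Finset.mem_filter] at hp
      obtain ⟨h1, h2, h3, h4⟩ := hX _ hp.1
      have hp1 := Finset.mem_offDiag.1 hp.1
      rw [hp.2] at h3
      refine ⟨p.1, ?_, Prod.ext rfl h3⟩
      rw [Finset.mem_sdiff, mem_mv]
      exact ⟨by rw [h3]; exact Ne.symm hp1.2.2, (hRm _).1 hp1.1⟩
  have fibY : ∀ g ∈ J, (R.offDiag.filter (fun p => Y p = g)).card = f * (f - 1) := by
    intro g hg
    have hgJ := (hJ g).1 hg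
    have h1 : ((fx (α := α) g).offDiag).card = f * (f - 1) := by
      rw [Finset.offDiag_card, hconst g hg, Nat.mul_sub, mul_one]
    rw [← h1]
    congr 1
    ext p
    rw [Finset.mem_filter, Finset.mem_offDiag, Finset.mem_offDiag]
    constructor
    · rintro ⟨⟨h2, h3, h4⟩, h5⟩
      have h6 := hY p (Finset.mem_offDiag.2 ⟨h2, h3, h4⟩)
      rw [h5] at h6
      exact ⟨mem_fx.2 h6.2.2.1, mem_fx.2 h6.2.2.2, h4⟩
    · rintro ⟨h2, h3, h4⟩
      rw [mem_fx] at h2 h3
      have h5 : ∀ x : α, g • x = x → x ∈ R := by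
        intro x hx
        rw [hRm]
        simp only [Finset.mem_insert, Finset.mem_singleton, not_or]
        refine ⟨?_, ?_⟩
        · rintro rfl; rw [hgJ.1] at hx; exact hab hx.symm
        · rintro rfl; rw [hgJ.2.1] at hx; exact hab hx
      have hp : p ∈ R.offDiag := Finset.mem_offDiag.2 ⟨h5 _ h2, h5 _ h3, h4⟩
      refine ⟨⟨h5 _ h2, h5 _ h3, h4⟩, ?_⟩
      obtain ⟨k1, k2, k3, k4⟩ := hY p hp
      apply hun p.1 p.2 h4 ((hRm _).1 (h5 _ h2)) ((hRm _).1 (h5 _ h3))
      · rw [k1, hgJ.1]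
      · rw [k2, hgJ.2.1]
      · rw [k3, h2]
      · rw [k4, h3]
  have sX : R.offDiag.card = J.card * (Fintype.card α - f - 2) := by
    rw [Finset.card_eq_sum_card_fiberwise (f := X) (t := J) (fun p hp => hXJ p hp), Finset.sum_congr rfl fibX,
      Finset.sum_const, smul_eq_mul]
  have sY : R.offDiag.card = J.card * (f * (f - 1)) := by
    rw [Finset.card_eq_sum_card_fiberwise (f := Y) (t := J) (fun p hp => hYJ p hp), Finset.sum_congr rfl fibY,
      Finset.sum_const, smul_eq_mul]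
  have hJpos : 0 < J.card := Finset.card_pos.2 ⟨_, hg0⟩
  have heq : Fintype.card α - f - 2 = f * (f - 1) := Nat.eq_of_mul_eq_mul_left hJpos (sX.symm.trans sY)
  have hf' : f = 2 ∨ f = 3 := by omega
  rcases hf' with h2 | h3
  · rw [h2] at heq; omega
  · rw [h3] at heq; omega

/-- No sharply 6-transitive group has degree 13. -/
theorem Sharp.six_ne (h : Sharp G α 6) [Finite G] : Fintype.card α ≠ 13 := by
  classical
  intro h13
  have := Fintype.ofFinite G
  let ε : Fin 13 ≃ α := (Fintype.equivFinOfCardEq h13).symm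
  have hε : ∀ i j : Fin 13, i ≠ j → ε i ≠ ε j := fun i j hij h => hij (ε.injective h)
  obtain ⟨a, b, c, d, hab, hac, had, hbc, hbd, hcd⟩ : ∃ a b c d : α, a ≠ b ∧ a ≠ c ∧ a ≠ d ∧ b ≠ c ∧ b ≠ d ∧ c ≠ d :=
    ⟨ε 0, ε 1, ε 2, ε 3, hε _ _ (by decide), hε _ _ (by decide), hε _ _ (by decide), hε _ _ (by decide),
      hε _ _ (by decide), hε _ _ (by decide)⟩
  have hcard4 : ({a, b, c, d} : Finset α).card = 4 := by
    rw [Finset.card_eq_succ]
    exact ⟨a, {b, c, d}, by simp [hab, hac, had], rfl, Finset.card_eq_three.2 ⟨b, c, d, hbc, hbd, hcd, rfl⟩⟩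
  have exY : ∀ e f : α, e ≠ f → e ∉ ({a, b, c, d} : Finset α) → f ∉ ({a, b, c, d} : Finset α) →
      ∃ g : G, g • a = b ∧ g • b = a ∧ g • c = d ∧ g • d = c ∧ g • e = e ∧ g • f = f := by
    intro e f hef he hf
    simp only [Finset.mem_insert, Finset.mem_singleton, not_or] at he hf
    obtain ⟨g, hg⟩ := h.ex ![a, b, c, d, e, f] ![b, a, d, c, e, f]
      (inj6 hab hac had (Ne.symm he.1) (Ne.symm hf.1) hbc hbd (Ne.symm he.2.1) (Ne.symm hf.2.1) hcd
        (Ne.symm he.2.2.1) (Ne.symm hf.2.2.1) (Ne.symm he.2.2.2) (Ne.symm hf.2.2.2) hef)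
      (inj6 hab.symm hbd hbc (Ne.symm he.2.1) (Ne.symm hf.2.1) had hac (Ne.symm he.1) (Ne.symm hf.1) hcd.symm
        (Ne.symm he.2.2.2) (Ne.symm hf.2.2.2) (Ne.symm he.2.2.1) (Ne.symm hf.2.2.1) hef)
    exact ⟨g, hg 0, hg 1, hg 2, hg 3, hg 4, hg 5⟩
  have hun : ∀ e f : α, e ≠ f → e ∉ ({a, b, c, d} : Finset α) → f ∉ ({a, b, c, d} : Finset α) → ∀ g g' : G,
      g • a = g' • a → g • b = g' • b → g • c = g' • c → g • d = g' • d → g • e = g' • e → g • f = g' • f → g = g' := by
    intro e f hef he hf g g' h1 h2 h3 h4 h5 h6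
    simp only [Finset.mem_insert, Finset.mem_singleton, not_or] at he hf
    apply h.eq_of_agree ![a, b, c, d, e, f]
      (inj6 hab hac had (Ne.symm he.1) (Ne.symm hf.1) hbc hbd (Ne.symm he.2.1) (Ne.symm hf.2.1) hcd
        (Ne.symm he.2.2.1) (Ne.symm hf.2.2.1) (Ne.symm he.2.2.2) (Ne.symm hf.2.2.2) hef)
    intro i
    fin_cases i
    · exact h1
    · exact h2
    · exact h3
    · exact h4
    · exact h5
    · exact h6
  let R : Finset α := ({a, b, c, d} : Finset α)ᶜ
  have hR : R.card = 9 := by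
    rw [Finset.card_compl, hcard4, h13]
  let J : Finset G := Finset.univ.filter (fun g => g • a = b ∧ g • b = a ∧ g • c = d ∧ g • d = c ∧ g * g = 1)
  have hJ : ∀ g, g ∈ J ↔ (g • a = b ∧ g • b = a ∧ g • c = d ∧ g • d = c ∧ g * g = 1) := by intro g; simp [J]
  have hRm : ∀ x, x ∈ R ↔ x ∉ ({a, b, c, d} : Finset α) := by intro x; simp only [R, Finset.mem_compl]
  have cY : ∀ p : α × α, ∃ g : G, p ∈ R.offDiag → g • a = b ∧ g • b = a ∧ g • c = d ∧ g • d = c ∧ g • p.1 = p.1 ∧
      g • p.2 = p.2 := by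
    intro p
    by_cases hp : p ∈ R.offDiag
    · rw [Finset.mem_offDiag] at hp
      obtain ⟨g, hg⟩ := exY p.1 p.2 hp.2.2 ((hRm _).1 hp.1) ((hRm _).1 hp.2.1)
      exact ⟨g, fun _ => hg⟩
    · exact ⟨1, fun h => absurd h hp⟩
  choose Y hY using cY
  have hYJ : ∀ p ∈ R.offDiag, Y p ∈ J := by
    intro p hp
    obtain ⟨h1, h2, h3, h4, h5, h6⟩ := hY p hp
    rw [Finset.mem_offDiag] at hp
    rw [hJ]
    refine ⟨h1, h2, h3, h4, ?_⟩
    apply hun p.1 p.2 hp.2.2 ((hRm _).1 hp.1) ((hRm _).1 hp.2.1)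
    · rw [mul_smul, h1, h2, one_smul]
    · rw [mul_smul, h2, h1, one_smul]
    · rw [mul_smul, h3, h4, one_smul]
    · rw [mul_smul, h4, h3, one_smul]
    · rw [mul_smul, h5, h5, one_smul]
    · rw [mul_smul, h6, h6, one_smul]
  have hcardP : R.offDiag.card = 72 := by
    rw [Finset.offDiag_card, hR]
  have hne1 : ∀ g ∈ J, g ≠ 1 := by
    intro g hg h1
    rw [hJ, h1, one_smul] at hg
    exact hab hg.1
  have hmv : ∀ g : G, g ≠ 1 → 5 ≤ (mv (α := α) g).card := by
    intro g hg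
    have h1 := h.card_fx_lt hg
    have h2 := card_fx_add_mv (α := α) g
    omega
  -- an involution with four fixed points
  obtain ⟨g0, hg00, hg01, hg02, hg03, hg04, hg05⟩ : ∃ g : G, g • ε 0 = ε 1 ∧ g • ε 1 = ε 0 ∧ g • ε 2 = ε 2 ∧
      g • ε 3 = ε 3 ∧ g • ε 4 = ε 4 ∧ g • ε 5 = ε 5 := by
    obtain ⟨g, hg⟩ := h.ex ![ε 0, ε 1, ε 2, ε 3, ε 4, ε 5] ![ε 1, ε 0, ε 2, ε 3, ε 4, ε 5]
      (inj6 (hε _ _ (by decide)) (hε _ _ (by decide)) (hε _ _ (by decide)) (hε _ _ (by decide)) (hε _ _ (by decide))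
        (hε _ _ (by decide)) (hε _ _ (by decide)) (hε _ _ (by decide)) (hε _ _ (by decide)) (hε _ _ (by decide))
        (hε _ _ (by decide)) (hε _ _ (by decide)) (hε _ _ (by decide)) (hε _ _ (by decide)) (hε _ _ (by decide)))
      (inj6 (hε _ _ (by decide)) (hε _ _ (by decide)) (hε _ _ (by decide)) (hε _ _ (by decide)) (hε _ _ (by decide))
        (hε _ _ (by decide)) (hε _ _ (by decide)) (hε _ _ (by decide)) (hε _ _ (by decide)) (hε _ _ (by decide))
        (hε _ _ (by decide)) (hε _ _ (by decide)) (hε _ _ (by decide)) (hε _ _ (by decide)) (hε _ _ (by decide)))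
    exact ⟨g, hg 0, hg 1, hg 2, hg 3, hg 4, hg 5⟩
  have hg0sq : g0 * g0 = 1 := by
    apply h.uniq ![ε 0, ε 1, ε 2, ε 3, ε 4, ε 5]
      (inj6 (hε _ _ (by decide)) (hε _ _ (by decide)) (hε _ _ (by decide)) (hε _ _ (by decide)) (hε _ _ (by decide))
        (hε _ _ (by decide)) (hε _ _ (by decide)) (hε _ _ (by decide)) (hε _ _ (by decide)) (hε _ _ (by decide))
        (hε _ _ (by decide)) (hε _ _ (by decide)) (hε _ _ (by decide)) (hε _ _ (by decide)) (hε _ _ (by decide)))
    intro i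
    fin_cases i
    · change (g0 * g0) • ε 0 = ε 0
      rw [mul_smul, hg00, hg01]
    · change (g0 * g0) • ε 1 = ε 1
      rw [mul_smul, hg01, hg00]
    · change (g0 * g0) • ε 2 = ε 2
      rw [mul_smul, hg02, hg02]
    · change (g0 * g0) • ε 3 = ε 3
      rw [mul_smul, hg03, hg03]
    · change (g0 * g0) • ε 4 = ε 4
      rw [mul_smul, hg04, hg04]
    · change (g0 * g0) • ε 5 = ε 5
      rw [mul_smul, hg05, hg05]
  have hg0ne : g0 ≠ 1 := by
    rintro rfl
    rw [one_smul] at hg00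
    exact hε 0 1 (by decide) hg00
  have hf5 : (fx (α := α) g0).card = 5 := by
    have h1 := h.card_fx_lt hg0ne
    have h2 := card_fx_add_mv (α := α) g0
    have h3 := even_card_mv (α := α) hg0sq
    have h4 : ({ε 2, ε 3, ε 4, ε 5} : Finset α) ⊆ fx g0 := by
      intro x hx
      simp only [Finset.mem_insert, Finset.mem_singleton] at hx
      rw [mem_fx]
      rcases hx with rfl | rfl | rfl | rfl
      · exact hg02
      · exact hg03
      · exact hg04
      · exact hg05
    have h5 := Finset.card_le_card h4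
    have h6 : ({ε 2, ε 3, ε 4, ε 5} : Finset α).card = 4 := by
      rw [Finset.card_eq_succ]
      exact ⟨ε 2, {ε 3, ε 4, ε 5}, by simp, rfl, Finset.card_eq_three.2 ⟨ε 3, ε 4, ε 5, hε _ _ (by decide),
        hε _ _ (by decide), hε _ _ (by decide), rfl⟩⟩
    rw [Nat.even_iff] at h3
    omega
  have hconst : ∀ g ∈ J, (fx (α := α) g).card = 5 := by
    intro g hg
    obtain ⟨k, hk⟩ := h.conj6 hg0sq ((hJ _).1 hg).2.2.2.2 (hmv _ hg0ne) (hmv g (hne1 g hg))
    rw [← hk, card_fx_conj, hf5]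
  have fibY : ∀ g ∈ J, (R.offDiag.filter (fun p => Y p = g)).card = 20 := by
    intro g hg
    have hgJ := (hJ g).1 hg
    have h1 : ((fx (α := α) g).offDiag).card = 20 := by
      rw [Finset.offDiag_card, hconst g hg]
    rw [← h1]
    congr 1
    ext p
    rw [Finset.mem_filter, Finset.mem_offDiag, Finset.mem_offDiag]
    constructor
    · rintro ⟨⟨h2, h3, h4⟩, h5⟩
      have h6 := hY p (Finset.mem_offDiag.2 ⟨h2, h3, h4⟩)
      rw [h5] at h6
      exact ⟨mem_fx.2 h6.2.2.2.2.1, mem_fx.2 h6.2.2.2.2.2, h4⟩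
    · rintro ⟨h2, h3, h4⟩
      rw [mem_fx] at h2 h3
      have h5 : ∀ x : α, g • x = x → x ∈ R := by
        intro x hx
        rw [hRm]
        simp only [Finset.mem_insert, Finset.mem_singleton, not_or]
        refine ⟨?_, ?_, ?_, ?_⟩
        · rintro rfl; rw [hgJ.1] at hx; exact hab hx.symm
        · rintro rfl; rw [hgJ.2.1] at hx; exact hab hx
        · rintro rfl; rw [hgJ.2.2.1] at hx; exact hcd hx.symm
        · rintro rfl; rw [hgJ.2.2.2.1] at hx; exact hcd hx
      have hp : p ∈ R.offDiag := Finset.mem_offDiag.2 ⟨h5 _ h2, h5 _ h3, h4⟩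
      refine ⟨⟨h5 _ h2, h5 _ h3, h4⟩, ?_⟩
      obtain ⟨k1, k2, k3, k4, k5, k6⟩ := hY p hp
      apply hun p.1 p.2 h4 ((hRm _).1 (h5 _ h2)) ((hRm _).1 (h5 _ h3))
      · rw [k1, hgJ.1]
      · rw [k2, hgJ.2.1]
      · rw [k3, hgJ.2.2.1]
      · rw [k4, hgJ.2.2.2.1]
      · rw [k5, h2]
      · rw [k6, h3]
  have sY : R.offDiag.card = J.card * 20 := by
    rw [Finset.card_eq_sum_card_fiberwise (f := Y) (t := J) (fun p hp => hYJ p hp), Finset.sum_congr rfl fibY,
      Finset.sum_const, smul_eq_mul]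
  rw [hcardP] at sY
  omega

end Count

open Classical in
/-- Degrees for `k = 4`. -/
theorem Sharp.deg4 [Finite α] [Finite G] (h : Sharp G α 4) (h4 : 4 ≤ Nat.card α) : Nat.card α = 4 ∨ Nat.card α = 5 ∨
    Nat.card α = 6 ∨ Nat.card α = 11 := by
  have := Fintype.ofFinite α
  rw [Nat.card_eq_fintype_card] at h4 ⊢
  exact h.four h4

/-- Degrees for `k = 5`. -/
theorem Sharp.deg5 [Finite α] [Finite G] (h : Sharp G α 5) (h5 : 5 ≤ Nat.card α) : Nat.card α = 5 ∨ Nat.card α = 6 ∨
    Nat.card α = 7 ∨ Nat.card α = 12 := by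
  have hne : Nonempty α := by
    rw [← not_isEmpty_iff]; intro hc; rw [Nat.card_of_isEmpty] at h5; omega
  obtain ⟨a⟩ := hne
  have h1 := card_ofStabilizer (G := G) a
  have := (h.step a).deg4 (by omega)
  omega

open Classical in
/-- Degrees for `k = 6`. -/
theorem Sharp.deg6 [Finite α] [Finite G] (h : Sharp G α 6) (h6 : 6 ≤ Nat.card α) : Nat.card α = 6 ∨ Nat.card α = 7 ∨
    Nat.card α = 8 := by
  have hne : Nonempty α := by
    rw [← not_isEmpty_iff]; intro hc; rw [Nat.card_of_isEmpty] at h6; omega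
  obtain ⟨a⟩ := hne
  have h1 := card_ofStabilizer (G := G) a
  have h2 := (h.step a).deg5 (by omega)
  have h3 : Nat.card α ≠ 13 := by
    have := Fintype.ofFinite α
    rw [Nat.card_eq_fintype_card]
    exact h.six_ne
  omega

/-- Degrees for `k ≥ 6`. -/
theorem Sharp.deg : ∀ (k : ℕ) {G : Type*} {α : Type*} [Group G] [MulAction G α] [Finite α] [Finite G]
    (_ : Sharp G α (k + 6)) (_ : k + 6 ≤ Nat.card α),
    Nat.card α = k + 6 ∨ Nat.card α = k + 7 ∨ Nat.card α = k + 8 := by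
  intro k
  induction k with
  | zero =>
    intro G α _ _ _ _ h hn
    simpa using h.deg6 (by simpa using hn)
  | succ k ih =>
    intro G α _ _ _ _ h hn
    have hne : Nonempty α := by
      rw [← not_isEmpty_iff]; intro hc; rw [Nat.card_of_isEmpty] at hn; omega
    obtain ⟨a⟩ := hne
    have h1 := card_ofStabilizer (G := G) a
    have h' : Sharp G α (k + 6 + 1) := by
      have : k + 1 + 6 = k + 6 + 1 := by omega
      rwa [this] at h
    have h2 := ih (h'.step a) (by omega)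
    omega

end Cfsg.Agent.H7
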